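import Cfsg.Agent.H323.OI.Pieces
import Cfsg.Agent.H340.Sy.OI
/-!
# S3325, the piece `PSplit`: the case `T² = -1` (helper340)

`T` an isometry with `T² = -1`: the nonabelian composition factors of the centralizer of `T` in `PΩ(Q)` are linear,
unitary or symplectic.
-/

set_option autoImplicit false
set_option linter.unusedSectionVars false

namespace Cfsg.Agent.H340.Sy

open Subgroup Cfsg Cfsg.Agent.BpLin Cfsg.Agent.BpCl

universe u v w

section Neg

open Cfsg.Agent.ClassicalGeometry.SympAutSemi (perm_apply_inv_self perm_inv_apply_self)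

variable {P : ∀ (S : Type u) [Group S], Prop} {r : ℕ} {F V : Type} [Field F] [Finite F] [CharP F r] [AddCommGroup V]
  [Module F V] [Module.Finite F V] {B : LinearMap.BilinForm F V} {ε : F}

theorem cf_iso_CL_neg (hr : r.Prime) (hr2 : r ≠ 2) (hP : BaseS r P) [Nontrivial V]
    (hnd : ∀ u, (∀ v, B u v = 0) → u = 0) (hε : ε * ε = 1)
    (hB : ∀ u v, B u v = ε * B v u) (T : V ≃ₗ[F] V) (hT : ∀ u v, B (T u) (T v) = B u v) (hTT : ∀ v, T (T v) = -v) :
    CF P ↥(Iso (fun u v => B u v) ⊓ CL F (T.toEquiv : Equiv.Perm V)) := by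
  have h2 : (2 : F) ≠ 0 := two_ne_zero_of_charP hr hr2
  have hV : Finite V := Module.finite_of_finite F
  have hE : Finite (Module.End F V) := Finite.of_injective (fun T : Module.End F V => (T : V → V)) DFunLike.coe_injective
  have hss : IsSemisimpleRing (Module.End F V) := IsSemisimpleRing.moduleEnd F V
  have hch : CharP (Module.End F V) r :=
    charP_of_injective_algebraMap (algebraMap F (Module.End F V)).injective r
  obtain ⟨g, hgT⟩ : ∃ g : Equiv.Perm V, g = T.toEquiv := ⟨_, rfl⟩
  have hgT' : ∀ v, g v = T v := fun v => by rw [hgT]; rfl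
  have hg : SemiIso (fun u v => B u v) (1 : F ≃+* F) 1 g :=
    { add := fun u v => by rw [hgT', hgT', hgT', map_add]
      smul := fun a v => by rw [hgT', hgT', map_smul]; rfl
      form := fun u v => by
        change B (g u) (g v) = 1 * B u v
        rw [hgT', hgT', hT, one_mul] }
  have hga : ∀ v, g (g v) = (-1 : F) • v := fun v => by rw [hgT', hgT', hTT, neg_one_smul]
  let s := adjI hnd hε hB
  let τ := semiEnd hg.toSemi
  have hno : NoOrth (fixInv τ s (semiEnd_adjI hnd hε hB hg)) := by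
    let T0 : Module.End F V := T.toLinearMap
    have hT0 : ∀ v, T0 v = T v := fun _ => rfl
    have hfix : ∀ c : F, τ (c • T0) = c • T0 := by
      intro c
      apply LinearMap.ext
      intro v
      change g ((c • T0) (g⁻¹ v)) = c • T v
      rw [LinearMap.smul_apply, hT0, hgT', map_smul]
      congr 2
      rw [← hgT', perm_apply_inv_self]
    have hfix1 : τ T0 = T0 := by
      have := hfix 1
      rwa [one_smul] at this
    have hadj : s T0 = -T0 := by
      apply LinearMap.ext
      intro u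
      rw [← sub_eq_zero]
      apply hnd
      intro v
      rw [map_sub, LinearMap.sub_apply]
      have h3 : B (s T0 u) v = B u (T0 v) := adjI_spec hnd hε hB T0 u v
      rw [h3, LinearMap.neg_apply, map_neg, LinearMap.neg_apply, hT0, hT0, ← hT u, hTT, map_neg]
      ring
    have hcen : ∀ a : ↥(fixRing τ), (⟨T0, hfix1⟩ : ↥(fixRing τ)) * a = a * ⟨T0, hfix1⟩ := by
      intro a
      apply Subtype.ext
      apply LinearMap.ext
      intro v
      change T0 ((a : Module.End F V) v) = (a : Module.End F V) (T0 v)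
      have h3 : τ (a : Module.End F V) = a := a.2
      have h4 := LinearMap.congr_fun h3 (g v)
      change g ((a : Module.End F V) (g⁻¹ (g v))) = (a : Module.End F V) (g v) at h4
      rw [perm_inv_apply_self, hgT', hgT'] at h4
      exact h4
    have hT2 : T0 * T0 = -1 := by
      apply LinearMap.ext
      intro v
      change T (T v) = -v
      rw [hTT]
    refine noOrth_of_center _ (z := ⟨T0, hfix1⟩) hcen ?_
    have h8 : (fixInv τ s (semiEnd_adjI hnd hε hB hg)) ⟨T0, hfix1⟩ - ⟨T0, hfix1⟩ = ⟨(-2 : F) • T0, hfix _⟩ := by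
      apply Subtype.ext
      change s T0 - T0 = (-2 : F) • T0
      rw [hadj]
      module
    rw [h8]
    refine ⟨⟨⟨(-2 : F) • T0, hfix _⟩, ⟨(2⁻¹ : F) • T0, hfix _⟩, ?_, ?_⟩, rfl⟩
    · apply Subtype.ext
      change ((-2 : F) • T0) * ((2⁻¹ : F) • T0) = 1
      rw [smul_mul_smul_comm, hT2, smul_neg, neg_mul, mul_inv_cancel₀ h2, neg_one_smul, neg_neg]
    · apply Subtype.ext
      change ((2⁻¹ : F) • T0) * ((-2 : F) • T0) = 1
      rw [smul_mul_smul_comm, hT2, smul_neg, mul_neg, inv_mul_cancel₀ h2, neg_one_smul, neg_neg]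
  have h1 : CF P ↥(s.U ⊓ fixU τ) := cf_fixUnitary hr hr2 hP τ
    (semiEnd_semiEnd hg.toSemi (neg_ne_zero.2 one_ne_zero) hga) s
    (semiEnd_adjI hnd hε hB hg) hno
  let e : LinearMap.GeneralLinearGroup F V ≃* (V ≃ₗ[F] V) := LinearMap.GeneralLinearGroup.generalLinearEquiv F V
  rw [← hgT]
  have h2 : (s.U ⊓ fixU τ).map e.toMonoidHom = Iso (fun u v => B u v) ⊓ CL F g := by
    ext h
    rw [Subgroup.mem_map_equiv]
    have he : ∀ v, ((e.symm h : LinearMap.GeneralLinearGroup F V) : Module.End F V) v = h v := fun _ => rfl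
    constructor
    · rintro ⟨h3, h4⟩
      refine ⟨fun u v => ?_, fun v => ?_⟩
      · have h5 := (mem_adjU hnd hε hB _).1 h3 u v
        exact h5
      · have h5 := LinearMap.congr_fun (mem_fixU.1 h4) (g v)
        rw [semiEnd_apply, he, he, perm_inv_apply_self] at h5
        exact h5.symm
    · rintro ⟨h3, h4⟩
      refine ⟨(mem_adjU hnd hε hB _).2 h3, mem_fixU.2 ?_⟩
      apply LinearMap.ext
      intro v
      rw [semiEnd_apply, he, he, ← mem_CL.1 h4, perm_apply_inv_self]
  rw [← h2]
  exact h1.congr ((s.U ⊓ fixU τ).equivMapOfInjective e.toMonoidHom e.injective)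

end Neg

section Mat

open QuadraticMap Cfsg.Agent.LieClassical.OrthCore Cfsg.Agent.H323.OI Matrix

variable {P : ∀ (S : Type u) [Group S], Prop} {r : ℕ} {F : Type} [Field F] [Fintype F] [CharP F r]
  {ι : Type} [Fintype ι] [DecidableEq ι] (Q : QuadraticForm F (ι → F))

/-- the linear equivalence of an isometry -/
noncomputable def toLE : ↥(isometryGroup F ⇑Q) →* ((ι → F) ≃ₗ[F] (ι → F)) :=
  ((LinearMap.GeneralLinearGroup.generalLinearEquiv F (ι → F)).toMonoidHom.comp
    (Matrix.GeneralLinearGroup.toLin (n := ι) (R := F)).toMonoidHom).comp (isometryGroup F ⇑Q).subtype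

theorem toLE_apply (g : ↥(isometryGroup F ⇑Q)) (v : ι → F) : toLE Q g v = mx g *ᵥ v := rfl

theorem toLE_injective : Function.Injective (toLE Q) := by
  intro g h hgh
  apply Subtype.ext
  apply Units.ext
  apply Matrix.toLin'.injective
  apply LinearMap.ext
  intro v
  exact LinearEquiv.congr_fun hgh v

theorem mem_iso_iff (g : ↥(isometryGroup F ⇑Q)) (v : ι → F) : Q (toLE Q g v) = Q v :=
  (Cfsg.Agent.ClassicalGeometry.Reflection.mem_isometryGroup_iff _ _).1 g.2 v

/-- every linear isometry comes from a matrix -/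
theorem exists_toLE (h : (ι → F) ≃ₗ[F] (ι → F)) (hh : ∀ v, Q (h v) = Q v) :
    ∃ g : ↥(isometryGroup F ⇑Q), toLE Q g = h := by
  let g0 : GL ι F := (Matrix.GeneralLinearGroup.toLin (n := ι) (R := F)).symm
    ((LinearMap.GeneralLinearGroup.generalLinearEquiv F (ι → F)).symm h)
  have hg0 : ∀ v, (g0 : Matrix ι ι F) *ᵥ v = h v := by
    intro v
    have h1 : (Matrix.GeneralLinearGroup.toLin (n := ι) (R := F)) g0 =
        (LinearMap.GeneralLinearGroup.generalLinearEquiv F (ι → F)).symm h := MulEquiv.apply_symm_apply _ _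
    have h2 := congrArg (fun x => (x : LinearMap.GeneralLinearGroup F (ι → F)).val v) h1
    exact h2
  refine ⟨⟨g0, (Cfsg.Agent.ClassicalGeometry.Reflection.mem_isometryGroup_iff _ _).2 fun v => ?_⟩, ?_⟩
  · rw [hg0, hh]
  · apply LinearEquiv.ext
    intro v
    exact hg0 v

theorem cf_neg (hr : r.Prime) (hr2 : r ≠ 2) (hP : BaseS r P) (hnd : Nondeg Q) [Nonempty ι]
    (T : ↥(isometryGroup F ⇑Q)) (hT : mx (T * T) = -1) (α : MulAut (POmega F ⇑Q))
    (hα : ∀ x : ↥(Omega F ⇑Q), α (QuotientGroup.mk x) = QuotientGroup.mk (cj T x)) :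
    CF P ↥(fixedSubgroup α) := by
  have h2 : (2 : F) ≠ 0 := two_ne_zero_of_charP hr hr2
  let T' := toLE Q T
  have hTT : ∀ v, T' (T' v) = -v := by
    intro v
    change mx T *ᵥ (mx T *ᵥ v) = -v
    have h3 : mx T * mx T = -1 := hT
    rw [Matrix.mulVec_mulVec, h3, neg_mulVec, one_mulVec]
  have hpol : ∀ (h : (ι → F) ≃ₗ[F] (ι → F)), (∀ v, Q (h v) = Q v) → ∀ u v, polarBilin Q (h u) (h v) = polarBilin Q u v := by
    intro h hh u v
    change polar Q (h u) (h v) = polar Q u v
    unfold polar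
    rw [← map_add, hh, hh, hh]
  have key : CF P ↥(Iso (fun u v => polarBilin Q u v) ⊓ CL F (T'.toEquiv : Equiv.Perm (ι → F))) :=
    cf_iso_CL_neg (ε := 1) hr hr2 hP (fun u hu => hnd u hu) (by ring) (fun u v => by
      rw [one_mul]; exact polar_comm Q u v) T' (hpol T' (mem_iso_iff Q T)) hTT
  rw [← iso_polar h2] at key
  have h3 : CF P ↥(fixedSubgroup (cj T : MulAut ↥(Omega F ⇑Q))) := by
    have hfix : ∀ m : ↥(Omega F ⇑Q), (cj T) m = m ↔ ∀ v, toLE Q m.1 (T' v) = T' (toLE Q m.1 v) := by
      intro m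
      have h4 : (cj T) m = m ↔ T * m.1 = m.1 * T := by
        rw [Subtype.ext_iff]
        change T * m.1 * T⁻¹ = m.1 ↔ _
        exact mul_inv_eq_iff_eq_mul
      rw [h4]
      constructor
      · intro h5 v
        have h6 := congrArg (fun x => toLE Q x v) h5
        simp only [map_mul] at h6
        exact h6.symm
      · intro h5
        apply toLE_injective Q
        rw [map_mul, map_mul]
        apply LinearEquiv.ext
        intro v
        exact (h5 v).symm
    refine CF.fixed_of_normal _ ((toLE Q).comp (Omega F ⇑Q).subtype)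
      ((toLE_injective Q).comp (Omega F ⇑Q).subtype_injective) key
      (fun m hm => ⟨fun u _ => mem_iso_iff Q m.1 u, (hfix m).1 hm⟩) fun c hc m hm => ?_
    obtain ⟨c', rfl⟩ := exists_toLE Q c (fun v => hc.1 v v)
    let m' : ↥(Omega F ⇑Q) := cj c' m
    have hm' : toLE Q m'.1 = toLE Q c' * toLE Q m.1 * (toLE Q c')⁻¹ := by
      rw [← map_inv, ← map_mul, ← map_mul]
      rfl
    refine ⟨m', (hfix m').2 ?_, hm'.symm⟩
    have h5 : toLE Q m'.1 ∈ CL F (T'.toEquiv : Equiv.Perm (ι → F)) := by
      rw [hm']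
      exact Subgroup.mul_mem _ (Subgroup.mul_mem _ hc.2 ((hfix m).1 hm)) (Subgroup.inv_mem _ hc.2)
    exact h5
  exact CF.fixed_of_lift (QuotientGroup.mk' _) (QuotientGroup.mk'_surjective _)
    (fun y hy => (QuotientGroup.eq_one_iff y).1 hy) (cj T) _ (fun x => (hα x).symm) h3

end Mat

section Final

open QuadraticMap Cfsg.Agent.LieClassical.OrthCore Cfsg.Agent.H323.OI Matrix

theorem sp_eight {F : Type} [Field F] [Fintype F] {n : ℕ} {c : Fin n → F} (hc : Sp c) : 8 ≤ n := by
  have h1 := hc.h6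
  have h2 : Fintype.card F % 4 = 1 ∨ Fintype.card F % 4 = 3 := by
    have := hc.odd
    rw [Nat.odd_iff] at this
    omega
  rcases h2 with h2 | h2
  · rcases h1.1 h2 with h | h <;> omega
  · rcases h1.2 h2 with h | h | h <;> omega

/-- A component `M = φ(Ω(U))` of the fixed points of an automorphism: its simple quotient is orthogonal. -/
theorem ort_comp {F : Type} [Field F] [Fintype F] {n : ℕ} {c : Fin n → F} (hc : Sp c) {S : Type} [Group S]
    (α : MulAut S) (φ : Om c →* S) (hker : φ.ker ≤ center (Om c)) (hfix : ∀ m, α (φ m) = φ m) :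
    ORT (↥(φ.range.subgroupOf (fixedSubgroup α)) ⧸ center ↥(φ.range.subgroupOf (fixedSubgroup α))) := by
  classical
  have hn := sp_eight hc
  have hperf : commutator (Om c) = ⊤ := (H519.OI.pOmF c hc.odd hc.ne hn).qs.1.commutator_eq_top
  have hle : φ.range ≤ fixedSubgroup α := by
    rintro _ ⟨m, rfl⟩
    exact hfix m
  let f : Om c →* ↥(φ.range.subgroupOf (fixedSubgroup α)) :=
    (Subgroup.subgroupOfEquivOfLe hle).symm.toMonoidHom.comp φ.rangeRestrict
  have hf : Function.Surjective f :=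
    (Subgroup.subgroupOfEquivOfLe hle).symm.surjective.comp φ.rangeRestrict_surjective
  have hk : f.ker ≤ center (Om c) := by
    intro m hm
    apply hker
    have h1 : (Subgroup.subgroupOfEquivOfLe hle).symm (φ.rangeRestrict m) = 1 := hm
    rw [MulEquiv.map_eq_one_iff] at h1
    exact congrArg Subtype.val h1
  obtain ⟨e⟩ := Cfsg.Agent.LieClassical.Grun.quotient_center_equiv hperf f hf hk
  exact (ort_pomega hc.odd (by omega) c hc.ne).congr e.symm

/-- **The case `T² = -1` of `PSplit`.** -/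
theorem neg_case {F : Type} [Field F] [Fintype F] {n : ℕ} (c : Fin n → F) (hc : Sp c)
    {F' : Type} [Field F'] [Fintype F'] (h2 : (2 : F') ≠ 0)
    {ι : Type} [Fintype ι] [DecidableEq ι] (Q : QuadraticForm F' (ι → F')) (hQ : Nondeg Q)
    (hι : 7 ≤ Fintype.card ι) (T : ↥(isometryGroup F' ⇑Q)) (hT : mx (T * T) = -1)
    (α : MulAut (POmega F' ⇑Q))
    (hα : ∀ x : ↥(Omega F' ⇑Q), α (QuotientGroup.mk x) = QuotientGroup.mk (cj T x))
    (φ : Om c →* POmega F' ⇑Q) (hker : φ.ker ≤ center (Om c)) (hfix : ∀ m, α (φ m) = φ m)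
    (hcomp : IsComponent (φ.range.subgroupOf (fx α))) : False := by
  obtain ⟨r, hr⟩ := CharP.exists F'
  have hrp : r.Prime := CharP.char_is_prime F' r
  have hr2 : r ≠ 2 := by
    rintro rfl
    exact h2 (by exact_mod_cast CharP.cast_eq_zero F' 2)
  have : Nonempty ι := Fintype.card_pos_iff.1 (by omega)
  have hfx : fx α = fixedSubgroup α := Subgroup.ext fun _ => Iff.rfl
  rw [hfx] at hcomp
  have h3 : CF (fun S _ => LUS S) ↥(fixedSubgroup α) := cf_neg Q hrp hr2 (base_lus hrp hr2) hQ T hT α hα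
  exact not_both (h3.component hcomp.1 hcomp.2.2 hcomp.2.1.commutator_eq_top) (ort_comp hc α φ hker hfix)

end Final

end Cfsg.Agent.H340.Sy
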